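/-
Bridge from the prelude's `IsTypePWith` to the internal `TypeP`.
-/
import Cfsg.Agent.Lib.PF.S08a
import Cfsg.Agent.Lib.PF.Bridge3

set_option autoImplicit false
set_option linter.unusedSectionVars false
set_option linter.unusedVariables false

namespace CA.PF

open Cfsg Subgroup CA CA.BG CA.Ch

variable {G : Type*} [Group G] [Finite G] {M U W1 W2 : Subgroup G}

theorem dprod_of_snc (h : IsSelfNormalizingCyclic W1 W2) : DProd W1 W2 (W1 ⊔ W2) :=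
  ⟨rfl, fun b hb => mem_centralizer_iff.2 fun a ha => h.2.2.2.1 a ha b hb, h.2.2.1⟩

theorem normedTI_of_snc (h : IsSelfNormalizingCyclic W1 W2) : NormedTI (hatZ W1 W2) (W1 ⊔ W2) := by
  have c := cti0_of_snc h
  have ab := abelian_of_cyclic h.2.2.2.2.1
  refine ⟨?_, fun g hg x hx => ?_, fun g x hx hg => ?_⟩
  · obtain ⟨a, ha, a1⟩ := exists_ne_one_mem' h.1
    obtain ⟨b, hb, b1⟩ := exists_ne_one_mem' h.2.1
    refine ⟨a * b, mem_hatZ'.2 ⟨mul_mem (mem_sup_left ha) (mem_sup_right hb), fun e => b1 ?_, fun e => a1 ?_⟩⟩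
    · exact mem_bot.1 (h.2.2.1 ▸ ⟨(mul_mem_cancel_left ha).1 e, hb⟩ : b ∈ (⊥ : Subgroup G))
    · exact mem_bot.1 (h.2.2.1 ▸ ⟨ha, (mul_mem_cancel_right hb).1 e⟩ : a ∈ (⊥ : Subgroup G))
  · have e : g * x = x * g := congrArg Subtype.val (ab.is_comm.comm ⟨g, hg⟩ ⟨x, (mem_hatZ'.1 hx).1⟩)
    rwa [e, mul_inv_cancel_right]
  · rw [mem_hatZ'] at hx hg
    simpa using c.ti.ti ⟨x, hx.1⟩ ⟨hx.2.1, hx.2.2⟩ ⟨_, hg.1⟩ ⟨hg.2.1, hg.2.2⟩ g rfl

theorem typeP_of_with (h : IsTypePWith M W1 U W2) : TypeP M U (W1 ⊔ W2) W1 W2 where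
  cyc1 := h.W₁_cyclic
  hall1 := ⟨h.W₁_compl.2.1, h.W₁_hall⟩
  ne1 := h.W₁_ne
  sd := h.W₁_compl.sdprod (h.W₁_compl.2.1.trans (der_normalIn M).norm)
  nilU := h.U_nilpotent
  nU := h.U_normal
  sdU := h.U_compl.sdprod (h.U_compl.2.1.trans ((der_le M).trans (Fcore_norm M)))
  ncyc := h.H_not_cyclic
  der2 := h.fitting_eq ▸ h.derived_two_le
  fit := h.fitting_eq
  fit_le := h.fitting_le
  cyc2 := cyclic_of_le h.selfNormalizing.2.2.2.2.1 le_sup_right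
  ne2 := h.selfNormalizing.2.1
  le2 := h.W₂_le.trans inf_le_left
  le2' := h.W₂_le.trans inf_le_right
  cent := h.W₂_centralizer
  dp := dprod_of_snc h.selfNormalizing
  ti := normedTI_of_snc h.selfNormalizing

end CA.PF
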